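import Cfsg.Agent.H290.ElReg
import Mathlib

/-!
# S5745, CrossK: the halving lemma (helper894)

`half` : if `T × T` embeds in a group with a faithful representation of degree `D` over `F`, then `T` (finite simple nonabelian) has a
faithful representation of degree `D / 2` over the algebraic closure of `F`.
-/

set_option autoImplicit false

namespace Cfsg.Agent.H894.CK

open Module Cfsg.Agent.H290.ElReg

section modules

variable {K : Type} [Field K] {V : Type} [AddCommGroup V] [Module K V] {T : Type} [Group T]

/-- restriction to an invariant subspace -/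
def resHom (f : T →* (V →ₗ[K] V)) (U : Submodule K V) (hU : ∀ t, ∀ u ∈ U, f t u ∈ U) : T →* (U →ₗ[K] U) where
  toFun t := (f t).restrict (hU t)
  map_one' := by
    ext u
    simp [LinearMap.restrict_apply]
  map_mul' a b := by
    ext u
    simp [LinearMap.restrict_apply]

theorem resHom_apply (f : T →* (V →ₗ[K] V)) (U : Submodule K V) (hU : ∀ t, ∀ u ∈ U, f t u ∈ U) (t : T) (u : U) :
    ((resHom f U hU t u : U) : V) = f t u := rfl

/-- the action on the quotient -/
def quoHom (f : T →* (V →ₗ[K] V)) (U : Submodule K V) (hU : ∀ t, ∀ u ∈ U, f t u ∈ U) :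
    T →* ((V ⧸ U) →ₗ[K] (V ⧸ U)) where
  toFun t := U.mapQ U (f t) (fun u hu => hU t u hu)
  map_one' := by
    apply LinearMap.ext
    intro x
    obtain ⟨x, rfl⟩ := U.mkQ_surjective x
    simp
  map_mul' a b := by
    apply LinearMap.ext
    intro x
    obtain ⟨x, rfl⟩ := U.mkQ_surjective x
    simp

theorem quoHom_apply (f : T →* (V →ₗ[K] V)) (U : Submodule K V) (hU : ∀ t, ∀ u ∈ U, f t u ∈ U) (t : T) (v : V) :
    quoHom f U hU t (U.mkQ v) = U.mkQ (f t v) := rfl

variable [IsSimpleGroup T]

/-- a homomorphism from a simple group is injective or trivial -/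
theorem inj_or {M : Type} [Monoid M] (f : T →* M) : Function.Injective f ∨ ∀ t, f t = 1 := by
  have h1 : f.ker.Normal := inferInstance
  rcases h1.eq_bot_or_eq_top with h | h
  · left
    exact (MonoidHom.ker_eq_bot_iff f).1 h
  · right
    intro t
    exact (MonoidHom.mem_ker (f := f)).1 (h ▸ Subgroup.mem_top t)

/-- not both on a submodule and on the quotient trivial -/
theorem inj_res_or_quo (hna : ¬ ∀ a b : T, a * b = b * a) (f : T →* (V →ₗ[K] V)) (hf : Function.Injective f)
    (U : Submodule K V) (hU : ∀ t, ∀ u ∈ U, f t u ∈ U) :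
    Function.Injective (resHom f U hU) ∨ Function.Injective (quoHom f U hU) := by
  rcases inj_or (resHom f U hU) with h | h
  · exact Or.inl h
  rcases inj_or (quoHom f U hU) with h' | h'
  · exact Or.inr h'
  exfalso
  apply hna
  have h1 : ∀ t, ∀ u ∈ U, f t u = u := by
    intro t u hu
    have := congrArg (fun g => ((g ⟨u, hu⟩ : U) : V)) (h t)
    exact this
  have h2 : ∀ t v, f t v - v ∈ U := by
    intro t v
    have h3 := congrArg (fun g => g (U.mkQ v)) (h' t)
    have h4 : U.mkQ (f t v) = U.mkQ v := h3
    rw [← sub_eq_zero, ← map_sub, Submodule.mkQ_apply, Submodule.Quotient.mk_eq_zero] at h4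
    exact h4
  intro a b
  apply hf
  rw [map_mul, map_mul]
  apply LinearMap.ext
  intro v
  rw [Module.End.mul_apply, Module.End.mul_apply]
  have e1 : f a (f b v - v) = f b v - v := h1 a _ (h2 b v)
  have e2 : f b (f a v - v) = f a v - v := h1 b _ (h2 a v)
  rw [map_sub, sub_eq_iff_eq_add] at e1 e2
  rw [e1, e2]
  abel

/-- `T` has a faithful module of dimension `≤ n` -/
def HasMod (K : Type) [Field K] (T : Type) [Group T] (n : ℕ) : Prop :=
  ∃ (A : Type) (_ : AddCommGroup A) (_ : Module K A) (_ : FiniteDimensional K A) (f : T →* (A →ₗ[K] A)),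
    Function.Injective f ∧ finrank K A ≤ n

theorem key [IsAlgClosed K] (hna : ¬ ∀ a b : T, a * b = b * a) (D : ℕ) :
    ∀ (V : Type) [AddCommGroup V] [Module K V] [FiniteDimensional K V] (f g : T →* (V →ₗ[K] V)),
      finrank K V ≤ D → Function.Injective f → Function.Injective g → (∀ a b, f a * g b = g b * f a) →
      HasMod K T (D / 2) := by
  induction D using Nat.strong_induction_on with
  | _ D ih =>
  intro V _ _ _ f g hD hf hg hc
  by_cases hirr : ∃ U : Submodule K V, U ≠ ⊥ ∧ U ≠ ⊤ ∧ (∀ t, ∀ u ∈ U, f t u ∈ U) ∧ (∀ t, ∀ u ∈ U, g t u ∈ U)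
  · obtain ⟨U, hU0, hU1, hUf, hUg⟩ := hirr
    have hsum := U.finrank_quotient_add_finrank
    have hpos : 0 < finrank K U := Module.finrank_pos_iff.2 (Submodule.nontrivial_iff_ne_bot.2 hU0)
    have hlt : finrank K U < finrank K V := Submodule.finrank_lt (lt_top_iff_ne_top.2 hU1).ne
    have hcU : ∀ a b, resHom f U hUf a * resHom g U hUg b = resHom g U hUg b * resHom f U hUf a := by
      intro a b
      apply LinearMap.ext
      intro u
      apply Subtype.ext
      exact congrArg (fun h => h (u : V)) (hc a b)
    have hcQ : ∀ a b, quoHom f U hUf a * quoHom g U hUg b = quoHom g U hUg b * quoHom f U hUf a := by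
      intro a b
      apply LinearMap.ext
      intro x
      obtain ⟨x, rfl⟩ := U.mkQ_surjective x
      exact congrArg (fun h => U.mkQ (h x)) (hc a b)
    have mono : ∀ {m n : ℕ}, m ≤ n → HasMod K T m → HasMod K T n := by
      rintro m n hmn ⟨A, i1, i2, i3, h, h1, h2⟩
      exact ⟨A, i1, i2, i3, h, h1, h2.trans hmn⟩
    rcases inj_res_or_quo hna f hf U hUf with h1 | h1 <;> rcases inj_res_or_quo hna g hg U hUg with h2 | h2
    · exact mono (Nat.div_le_div_right (by omega)) (ih (finrank K U) (by omega) U _ _ le_rfl h1 h2 hcU)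
    · by_cases h3 : finrank K U ≤ D / 2
      · exact ⟨U, inferInstance, inferInstance, inferInstance, _, h1, h3⟩
      · exact ⟨V ⧸ U, inferInstance, inferInstance, inferInstance, _, h2, by omega⟩
    · by_cases h3 : finrank K U ≤ D / 2
      · exact ⟨U, inferInstance, inferInstance, inferInstance, _, h2, h3⟩
      · exact ⟨V ⧸ U, inferInstance, inferInstance, inferInstance, _, h1, by omega⟩
    · exact mono (Nat.div_le_div_right (by omega)) (ih (finrank K (V ⧸ U)) (by omega) (V ⧸ U) _ _ le_rfl h1 h2 hcQ)
  · push Not at hirr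
    have hcomm : ∀ a b v, f a (g b v) = g b (f a v) := by
      intro a b v
      exact congrArg (fun h => h v) (hc a b)
    have hVnt : Nontrivial V := by
      by_contra h
      rw [not_nontrivial_iff_subsingleton] at h
      apply hna
      intro a b
      apply hf
      apply LinearMap.ext
      intro v
      exact Subsingleton.elim _ _
    -- a minimal `f`-invariant subspace
    obtain ⟨A, ⟨hA0, hAf⟩, hAmin⟩ : ∃ A : Submodule K V, (A ≠ ⊥ ∧ ∀ t, ∀ u ∈ A, f t u ∈ A) ∧
        ∀ B : Submodule K V, (B ≠ ⊥ ∧ ∀ t, ∀ u ∈ B, f t u ∈ B) → B ≤ A → B = A := by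
      obtain ⟨A, hA, hmin⟩ := WellFounded.has_min (wellFounded_lt (α := Submodule K V))
        {B : Submodule K V | B ≠ ⊥ ∧ ∀ t, ∀ u ∈ B, f t u ∈ B} ⟨⊤, top_ne_bot, fun _ _ _ => Submodule.mem_top⟩
      refine ⟨A, hA, fun B hB hBA => ?_⟩
      by_contra hne
      exact hmin B hB (lt_of_le_of_ne hBA hne)
    by_cases hAt : A = ⊤
    · -- Schur
      exfalso
      subst hAt
      have hscal : ∀ b, ∃ c : K, ∀ v, g b v = c • v := by
        intro b
        obtain ⟨c, hcc⟩ := Module.End.exists_eigenvalue (g b)
        refine ⟨c, fun v => ?_⟩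
        have h1 := hAmin (Module.End.eigenspace (g b) c) ⟨hcc, fun t u hu => ?_⟩ le_top
        · have h2 : v ∈ Module.End.eigenspace (g b) c := by rw [h1]; exact Submodule.mem_top
          exact Module.End.mem_eigenspace_iff.1 h2
        · rw [Module.End.mem_eigenspace_iff] at hu ⊢
          rw [← hcomm, hu, map_smul]
      apply hna
      intro a b
      apply hg
      rw [map_mul, map_mul]
      apply LinearMap.ext
      intro v
      obtain ⟨c, hc1⟩ := hscal a
      obtain ⟨d, hd1⟩ := hscal b
      rw [Module.End.mul_apply, Module.End.mul_apply, hc1, hd1, hc1, hd1, smul_comm]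
    · -- `A` is not invariant under `g`
      have hex : ∃ b, ∃ u ∈ A, g b u ∉ A := by
        by_contra hcon
        push Not at hcon
        obtain ⟨t, u, hu, hn⟩ := hirr A hA0 hAt hAf
        exact hn (hcon t u hu)
      obtain ⟨b, u, hu, hn⟩ := hex
      have hginj : Function.Injective (g b) := by
        intro x y hxy
        have h1 := congrArg (g b⁻¹) hxy
        have h2 : ∀ z, g b⁻¹ (g b z) = z := by
          intro z
          rw [← Module.End.mul_apply, ← map_mul, inv_mul_cancel, map_one, Module.End.one_apply]
        rwa [h2, h2] at h1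
      have hBf : ∀ t, ∀ w ∈ A.map (g b), f t w ∈ A.map (g b) := by
        rintro t _ ⟨w, hw, rfl⟩
        exact ⟨f t w, hAf t w hw, (hcomm t b w).symm⟩
      have hinf : A ⊓ A.map (g b) = ⊥ := by
        by_contra hne
        have h1 := hAmin (A ⊓ A.map (g b)) ⟨hne, fun t w hw => ⟨hAf t w hw.1, hBf t w hw.2⟩⟩ inf_le_left
        have h2 : A ≤ A.map (g b) := inf_eq_left.1 h1
        have h3 : finrank K (A.map (g b)) = finrank K A := (LinearEquiv.finrank_eq (Submodule.equivMapOfInjective (g b) hginj A)).symm
        have h4 : A = A.map (g b) := Submodule.eq_of_le_of_finrank_eq h2 h3.symm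
        apply hn
        rw [h4]
        exact ⟨u, hu, rfl⟩
      have hdim : finrank K A + finrank K (A.map (g b)) ≤ finrank K V := by
        have h1 := Submodule.finrank_sup_add_finrank_inf_eq A (A.map (g b))
        rw [hinf, finrank_bot, add_zero] at h1
        rw [← h1]
        exact Submodule.finrank_le _
      have hAinj : Function.Injective (resHom f A hAf) := by
        rcases inj_or (resHom f A hAf) with h | h
        · exact h
        exfalso
        -- the fixed space of `f`
        let W : Submodule K V := ⨅ t : T, LinearMap.ker (f t - 1)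
        have hW : ∀ v, v ∈ W ↔ ∀ t, f t v = v := by
          intro v
          simp only [W, Submodule.mem_iInf, LinearMap.mem_ker, LinearMap.sub_apply, Module.End.one_apply, sub_eq_zero]
        have hAW : A ≤ W := by
          intro v hv
          rw [hW]
          intro t
          exact congrArg (fun h => ((h ⟨v, hv⟩ : A) : V)) (h t)
        by_cases hWt : W = ⊤
        · apply hna
          intro a c
          apply hf
          apply LinearMap.ext
          intro v
          have h1 : ∀ t, f t v = v := (hW v).1 (by rw [hWt]; exact Submodule.mem_top)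
          rw [h1, h1]
        · obtain ⟨t, w, hw, hn'⟩ := hirr W (fun h0 => hA0 (le_bot_iff.1 (h0 ▸ hAW))) hWt (by
            intro t v hv
            rw [(hW v).1 hv t]
            exact hv)
          apply hn'
          rw [hW]
          intro s
          rw [hcomm, (hW w).1 hw s]
      have h3 : finrank K (A.map (g b)) = finrank K A := (LinearEquiv.finrank_eq (Submodule.equivMapOfInjective (g b) hginj A)).symm
      exact ⟨A, inferInstance, inferInstance, inferInstance, _, hAinj, by omega⟩

end modules

end Cfsg.Agent.H894.CK
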